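import Cfsg.Agent.FF.NaturalSection

/-!
The `SL(2, p)` image of a natural pair kills the centralizer of the module.
-/

set_option autoImplicit false
set_option linter.unusedSectionVars false

open Cfsg Cfsg.Agent.FF
open scoped commutatorElement MatrixGroups

namespace Cfsg.Agent.NoQuad

variable {p : ℕ} [hp : Fact p.Prime] {G : Type*} [Group G]

/-- A natural pair gives a subgroup of `H` with quotient `SL(2, p)`, the kernel containing the
centralizer of `V`. -/
theorem exists_hom_ker_of_naturalPair [Finite G] {V H : Subgroup G} (hV : IsElementaryAbelian p V)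
    (h : Stability.HasNaturalPair p H V) :
    ∃ (K : Subgroup G) (φ : K →* SL(2, ZMod p)), K ≤ H ∧ Function.Surjective φ ∧
      ∀ k : K, (k : G) ∈ Subgroup.centralizer (V : Set G) → φ k = 1 := by
  obtain ⟨V1, a, b, u, l, hV1, ha, hb, huH, hlH, huN, hlN, h11, h12, h21, h22, hind⟩ := h
  set X := Subgroup.normalizer (V1 : Set G) with hX
  have hVX : V ≤ X := (Modules.comm_le_centralizer hV.1).trans
    ((Subgroup.centralizer_le (SetLike.coe_subset_coe.2 hV1)).trans
      (Subgroup.centralizer_le_normalizer _))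
  haveI : (V1.subgroupOf X).Normal := Subgroup.normal_in_normalizer
  set π := QuotientGroup.mk' (V1.subgroupOf X)
  have hπ : ∀ x y : X, π x = π y ↔ (x : G)⁻¹ * y ∈ V1 := fun x y => QuotientGroup.eq
  have hπ1 : ∀ x : X, π x = 1 ↔ (x : G) ∈ V1 := fun x => QuotientGroup.eq_one_iff x
  set A := π ⟨a, hVX ha⟩
  set B := π ⟨b, hVX hb⟩
  have hA : A ^ p = 1 := by
    rw [← map_pow, hπ1, SubgroupClass.coe_pow, hV.2 a ha]; exact one_mem _
  have hB : B ^ p = 1 := by
    rw [← map_pow, hπ1, SubgroupClass.coe_pow, hV.2 b hb]; exact one_mem _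
  have hAB : Commute A B :=
    (show Commute (⟨a, hVX ha⟩ : X) ⟨b, hVX hb⟩ from
      Subtype.ext (Modules.elemAb_comm hV ha hb)).map π
  have hd : Subgroup.zpowers A ⊓ Subgroup.zpowers B = ⊥ := by
    rw [eq_bot_iff]
    intro z hz
    obtain ⟨⟨i, hi⟩, ⟨j, hj⟩⟩ := Subgroup.mem_inf.1 hz
    have h0 : A ^ i * B ^ (-j) = 1 := by
      rw [zpow_neg, mul_inv_eq_one]; exact hi.trans hj.symm
    rw [← map_zpow, ← map_zpow, ← map_mul, hπ1] at h0
    simp only [Subgroup.coe_mul, SubgroupClass.coe_zpow] at h0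
    obtain ⟨⟨k, rfl⟩, -⟩ := hind i (-j) h0
    rw [Subgroup.mem_bot, ← hi]
    change A ^ ((p : ℤ) * k) = 1
    rw [zpow_mul, zpow_natCast, hA, one_zpow]
  have hp1 : ¬ (p : ℤ) ∣ 1 := fun h => hp.out.ne_one (by exact_mod_cast Int.eq_one_of_dvd_one (by omega) h)
  have hA1 : A ≠ 1 := by
    intro h0
    rw [hπ1] at h0
    exact hp1 (hind 1 0 (by simpa using h0)).1
  have hB1 : B ≠ 1 := by
    intro h0
    rw [hπ1] at h0
    exact hp1 (hind 0 1 (by simpa using h0)).2
  have flip : ∀ x y : X, (x : G) * (y : G)⁻¹ ∈ V1 → π x = π y := by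
    intro x y hxy
    rw [← mul_inv_eq_one, ← map_inv, ← map_mul, hπ1]
    exact hxy
  set U := π ⟨u, huN⟩
  set L := π ⟨l, hlN⟩
  have hU : Rep A B U ((Linear.upperT ((1 : ℕ) : ZMod p) : SL(2, ZMod p)) : Matrix _ _ (ZMod p)) := by
    refine Rep.upperT hA hB hAB ?_ ?_
    · rw [← map_inv, ← map_mul, ← map_mul]; exact flip _ _ h11
    · rw [pow_one, ← map_inv, ← map_mul, ← map_mul, ← map_mul]; exact flip _ _ h12
  have hL : Rep A B L ((Linear.lowerT ((1 : ℕ) : ZMod p) : SL(2, ZMod p)) : Matrix _ _ (ZMod p)) := by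
    refine Rep.lowerT hA hB hAB ?_ ?_
    · rw [← map_inv, ← map_mul, ← map_mul]; exact flip _ _ h22
    · rw [pow_one, ← hAB.eq, ← map_inv, ← map_mul, ← map_mul, ← map_mul]; exact flip _ _ h21
  obtain ⟨φ, hφ⟩ := exists_hom_of_reps hA hB hAB hd hA1 hB1 ({U, L} : Set (X ⧸ V1.subgroupOf X))
    (by rintro g (rfl | rfl); exacts [⟨_, hU⟩, ⟨_, hL⟩])
  set K := Subgroup.closure ({u, l} : Set G)
  have hKX : K ≤ X := (Subgroup.closure_le _).2 (by rintro z (rfl | rfl) <;> assumption)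
  have hKH : K ≤ H := (Subgroup.closure_le _).2 (by rintro z (rfl | rfl) <;> assumption)
  let f : K →* X ⧸ V1.subgroupOf X := π.comp (Subgroup.inclusion hKX)
  have hf : ∀ k : K, f k ∈ Subgroup.closure ({U, L} : Set (X ⧸ V1.subgroupOf X)) := by
    have hle : (Subgroup.closure ({⟨u, huN⟩, ⟨l, hlN⟩} : Set X)).map π ≤
        Subgroup.closure ({U, L} : Set (X ⧸ V1.subgroupOf X)) := by
      rw [MonoidHom.map_closure, Set.image_pair]
    intro k
    refine hle ⟨Subgroup.inclusion hKX k, ?_, rfl⟩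
    have key : K ≤ (Subgroup.closure ({⟨u, huN⟩, ⟨l, hlN⟩} : Set X)).map X.subtype := by
      rw [MonoidHom.map_closure, Set.image_pair]
      rfl
    obtain ⟨y, hy, hyk⟩ := key k.2
    rwa [show Subgroup.inclusion hKX k = y from Subtype.ext hyk.symm]
  refine ⟨K, φ.comp (f.codRestrict _ hf), hKH, ?_, fun k hk => ?_⟩
  swap
  · refine hφ ⟨f k, hf k⟩ 1 ?_
    have hc : ∀ z : X, (z : G) ∈ V → f k * π z * (f k)⁻¹ = π z := fun z hz => by
      have he : Subgroup.inclusion hKX k * z * (Subgroup.inclusion hKX k)⁻¹ = z :=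
        Subtype.ext (show (k : G) * z * (k : G)⁻¹ = z by
          rw [← Subgroup.mem_centralizer_iff.1 hk z hz, mul_inv_cancel_right])
      show π _ * π z * (π _)⁻¹ = π z
      rw [← map_inv, ← map_mul, ← map_mul, he]
    constructor
    · simpa [coord_one_zero hA hB hAB] using hc ⟨a, hVX ha⟩ ha
    · simpa [coord_zero_one hA hB hAB] using hc ⟨b, hVX hb⟩ hb
  rw [← MonoidHom.range_eq_top, eq_top_iff, ← Stability.SL2.closure_upperU_lowerU,
    Subgroup.closure_le]
  rintro z (rfl | rfl)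
  · refine ⟨⟨u, Subgroup.subset_closure (by simp)⟩, (hφ _ _ hU).trans ?_⟩
    apply Linear.slTwo_ext <;> simp [Matrix.SpecialLinearGroup.transvection_coe]
  · refine ⟨⟨l, Subgroup.subset_closure (by simp)⟩, (hφ _ _ hL).trans ?_⟩
    apply Linear.slTwo_ext <;> simp [Matrix.SpecialLinearGroup.transvection_coe]

end Cfsg.Agent.NoQuad
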