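import Cfsg.Agent.NoQuad.ReeKlein
import Cfsg.Agent.S1069

/-!
No quadratic action for `L₂(q)`, `q` odd, and for the Ree groups.
-/

set_option autoImplicit false
set_option linter.unusedSectionVars false

open Cfsg Subgroup
open scoped MatrixGroups

namespace Cfsg.Agent.NoQuad

theorem commTwoImages_of_equiv {p : ℕ} [Fact p.Prime] {Q R : Type*} [Group Q] [Group R] (e : Q ≃* R)
    (h : CommTwoImages p R) : CommTwoImages p Q := by
  intro T hT ψ x y
  let f := T.equivMapOfInjective e.toMonoidHom e.injective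
  have := h (T.map e.toMonoidHom) (hT.map _) (ψ.comp f.symm.toMonoidHom) (f x) (f y)
  simp only [MonoidHom.comp_apply, MulEquiv.coe_toMonoidHom] at this
  rwa [f.symm_apply_apply, f.symm_apply_apply] at this

theorem not_sixteen_dvd_ree (m : ℕ) :
    ¬ 16 ∣ (3 ^ (2 * m + 1)) ^ 3 * (3 ^ (2 * m + 1) - 1) * ((3 ^ (2 * m + 1)) ^ 3 + 1) := by
  intro h
  set q := 3 ^ (2 * m + 1) with hq
  have hm : q % 16 = 3 ∨ q % 16 = 11 := by
    rw [hq]
    clear h hq q
    induction m with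
    | zero => left; norm_num
    | succ k ih =>
      rw [show 2 * (k + 1) + 1 = (2 * k + 1) + 2 by ring, pow_add, Nat.mul_mod]
      rcases ih with e | e <;> rw [e] <;> norm_num
  obtain ⟨c, hc⟩ : ∃ c, q = 16 * c + q % 16 := ⟨q / 16, (Nat.div_add_mod q 16).symm⟩
  rw [Nat.dvd_iff_mod_eq_zero] at h
  rcases hm with e | e
  · rw [e] at hc
    rw [hc, show 16 * c + 3 - 1 = 16 * c + 2 by omega] at h
    simp [Nat.mul_mod, Nat.add_mod, Nat.pow_mod] at h
  · rw [e] at hc
    rw [hc, show 16 * c + 11 - 1 = 16 * c + 10 by omega] at h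
    simp [Nat.mul_mod, Nat.add_mod, Nat.pow_mod] at h

theorem commTwoImages_quotient {p : ℕ} [Fact p.Prime] {Q : Type*} [Group Q] [Finite Q]
    (hq : (∃ (F : Type) (_ : Field F) (_ : Fintype F) (n : ℕ), Fintype.card F = p ^ n ∧
        Odd (Fintype.card F) ∧
        Nonempty (Q ≃* Matrix.ProjectiveSpecialLinearGroup (Fin 2) F)) ∨
      (p = 3 ∧ Cfsg.Lie.IsoRee Q)) : p ≠ 2 ∧ CommTwoImages p Q := by
  rcases hq with ⟨F, _, _, n, hn, hodd, ⟨e⟩⟩ | ⟨hp3, K, _, _, m, hm, hK, ⟨e⟩⟩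
  · have hp2 : p ≠ 2 := by
      rintro rfl
      have hn0 : n ≠ 0 := fun h => by
        rw [h, pow_zero] at hn
        exact absurd hn Fintype.one_lt_card.ne'
      rw [hn] at hodd
      exact (Nat.not_odd_iff_even.2 (Nat.even_pow.2 ⟨even_two, hn0⟩)) hodd
    refine ⟨hp2, commTwoImages_of_equiv e (commTwoImages_psl hp2 fun h2 => ?_)⟩
    have hd : addOrderOf (1 : F) ∣ Fintype.card F := addOrderOf_dvd_card
    have h2' : addOrderOf (1 : F) = 2 :=
      addOrderOf_eq_prime (by simpa [two_nsmul, one_add_one_eq_two] using h2) one_ne_zero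
    rw [h2'] at hd
    exact (Nat.not_even_iff_odd.2 hodd) (even_iff_two_dvd.2 hd)
  · have hp2 : p ≠ 2 := by omega
    obtain ⟨g₁, g₂, hc, h1, h2, n1, n2, hne⟩ := ree_four_group (m := m) hK
    haveI : Finite ↥(Cfsg.Lie.twistedG2 K (3 ^ m)) := Finite.of_equiv Q e.toEquiv
    refine ⟨hp2, commTwoImages_of_equiv e (commTwoImages_of_eight hp2 ?_ hc h1 h2 n1 n2 hne)⟩
    rw [Cfsg.Agent.S1069.result hK]
    exact not_sixteen_dvd_ree m

end Cfsg.Agent.NoQuad
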