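import Cfsg.Agent.NoQuad.TwoByTwo
import Cfsg.Agent.ChevTw.TwG2Inv

/-!
A four-group in `²G₂(q)`, and the 2-subgroups of a group with Sylow 2-subgroups of order at most 8.
-/

set_option autoImplicit false
set_option linter.unusedSectionVars false

open Cfsg Subgroup
open scoped MatrixGroups

namespace Cfsg.Agent.NoQuad

theorem commTwoImages_of_eight {p : ℕ} [Fact p.Prime] (hp2 : p ≠ 2) {Q : Type*} [Group Q] [Finite Q]
    (h16 : ¬ 16 ∣ Nat.card Q) {g₁ g₂ : Q} (hc : Commute g₁ g₂) (h₁ : g₁ * g₁ = 1)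
    (h₂ : g₂ * g₂ = 1) (n₁ : g₁ ≠ 1) (n₂ : g₂ ≠ 1) (hne : g₁ ≠ g₂) : CommTwoImages p Q := by
  intro T hT ψ x y
  by_contra hxy
  haveI : Fact (Nat.Prime 2) := ⟨Nat.prime_two⟩
  have hsmall : ∀ {X : Type _} [Group X] [Finite X], IsPGroup 2 X → Nat.card X ≤ 4 →
      ∀ a b : X, Commute a b := by
    intro X _ _ hX hle a b
    obtain ⟨i, hi⟩ := hX.exists_card_eq
    have hi2 : i ≤ 2 := by
      by_contra hlt
      have : 2 ^ 3 ≤ 2 ^ i := Nat.pow_le_pow_right (by norm_num) (by omega)
      omega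
    interval_cases i
    · haveI : Subsingleton X := by
        rw [← Finite.card_le_one_iff_subsingleton, hi, pow_zero]
      rw [Subsingleton.elim a b]
    · haveI : Fact (Nat.Prime 2) := ⟨Nat.prime_two⟩
      haveI := isCyclic_of_prime_card (by simpa using hi : Nat.card X = 2)
      letI : CommGroup X := IsCyclic.commGroup
      exact Commute.all a b
    · exact (IsPGroup.isMulCommutative_of_card_eq_prime_sq (p := 2) hi).is_comm.comm a b
  -- the image is not commutative, so `ψ` is injective and `|T| = 8`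
  have hcard : Nat.card T ≤ 8 := by
    obtain ⟨i, hi⟩ := hT.exists_card_eq
    rw [hi]
    by_contra hlt
    have : 4 ≤ i := by
      by_contra h4
      have : 2 ^ i ≤ 2 ^ 3 := Nat.pow_le_pow_right (by norm_num) (by omega)
      omega
    exact h16 ((pow_dvd_pow 2 this).trans (hi ▸ Subgroup.card_subgroup_dvd_card T))
  have hR : IsPGroup 2 ψ.range := hT.of_surjective ψ.rangeRestrict ψ.rangeRestrict_surjective
  have hbig : 4 < Nat.card ψ.range := by
    by_contra hlt
    exact hxy (congrArg Subtype.val (hsmall hR (not_lt.1 hlt) ⟨ψ x, x, rfl⟩ ⟨ψ y, y, rfl⟩).eq)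
  have hker : ψ.ker = ⊥ := by
    by_contra hk
    have h1 : ψ.ker.index * Nat.card ψ.ker = Nat.card T := Subgroup.index_mul_card _
    rw [Subgroup.index_ker] at h1
    have h2 : 1 < Nat.card ψ.ker := (Subgroup.one_lt_card_iff_ne_bot _).2 hk
    nlinarith
  have hinj : Function.Injective ψ := (MonoidHom.ker_eq_bot_iff ψ).1 hker
  have hcardT : 4 < Nat.card T := hbig.trans_le (Nat.card_le_card_of_surjective _
    ψ.rangeRestrict_surjective)
  -- so `T` has at most one involution
  have hone : ∀ t t' : T, t * t = 1 → t' * t' = 1 → t ≠ 1 → t' ≠ 1 → t = t' := by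
    have hval : ∀ t : T, t * t = 1 → t ≠ 1 → ψ t = -1 := fun t ht ht1 =>
      (eq_one_or_neg_one_of_mem_center (mem_center_of_sq_eq_one (two_ne_zero_zmod hp2)
        (by rw [← map_mul, ht, map_one]))).resolve_left fun e => ht1 (hinj (by rw [e, map_one]))
    exact fun t t' h h' n n' => hinj ((hval t h n).trans (hval t' h' n').symm)
  -- but the four-group lies in a conjugate of `T`
  obtain ⟨P, hTP⟩ := hT.exists_le_sylow
  have hPT : (P : Subgroup Q) = T := by
    refine (Subgroup.eq_of_le_of_card_ge hTP ?_).symm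
    obtain ⟨i, hi⟩ := P.isPGroup'.exists_card_eq
    obtain ⟨j, hj⟩ := hT.exists_card_eq
    have hi3 : i ≤ 3 := by
      by_contra hlt
      exact h16 ((pow_dvd_pow 2 (by omega : 4 ≤ i)).trans (hi ▸ Subgroup.card_subgroup_dvd_card _))
    have hj3 : 3 ≤ j := by
      by_contra hlt
      have : 2 ^ j ≤ 2 ^ 2 := Nat.pow_le_pow_right (by norm_num) (by omega)
      omega
    rw [hi, hj]
    exact Nat.pow_le_pow_right (by norm_num) (hi3.trans hj3)
  have hZ : ∀ g : Q, g * g = 1 → IsPGroup 2 (zpowers g) := fun g hg =>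
    IsPGroup.of_card_dvd_pow (n := 1) (by
      rw [Nat.card_zpowers, pow_one]
      exact orderOf_dvd_of_pow_eq_one (by rw [sq, hg]))
  have hV : IsPGroup 2 ↥(zpowers g₁ ⊔ zpowers g₂) :=
    (hZ g₁ h₁).to_sup_of_normal_right' (hZ g₂ h₂) (by
      rw [zpowers_le, Subgroup.mem_normalizer_iff_map_conj_eq, MonoidHom.map_zpowers]
      congr 1
      show g₁ * g₂ * g₁⁻¹ = g₂
      rw [hc.eq, mul_inv_cancel_right])
  obtain ⟨P', hP'⟩ := hV.exists_le_sylow
  obtain ⟨g, hg⟩ := MulAction.exists_smul_eq Q P' P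
  have hin : ∀ z ∈ zpowers g₁ ⊔ zpowers g₂, g * z * g⁻¹ ∈ T := by
    intro z hz
    rw [← hPT, ← hg, Sylow.coe_subgroup_smul]
    exact ⟨z, hP' hz, rfl⟩
  have hsq : ∀ z : Q, z * z = 1 → (g * z * g⁻¹) * (g * z * g⁻¹) = 1 := fun z hz => by
    rw [show g * z * g⁻¹ * (g * z * g⁻¹) = g * (z * z) * g⁻¹ by group, hz]
    group
  refine hne (mul_left_cancel (a := g) (mul_right_cancel (b := g⁻¹) (congrArg Subtype.val
    (hone ⟨_, hin g₁ (Subgroup.mem_sup_left (mem_zpowers _))⟩
      ⟨_, hin g₂ (Subgroup.mem_sup_right (mem_zpowers _))⟩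
      (Subtype.ext (hsq g₁ h₁)) (Subtype.ext (hsq g₂ h₂))
      (fun e => n₁ (by simpa using congrArg Subtype.val e))
      (fun e => n₂ (by simpa using congrArg Subtype.val e))))))

open Cfsg.Lie Cfsg.Agent.ChevTw Cfsg.Agent.ChevTw.G2Inv Cfsg.Agent.ChevGrp

attribute [local instance] factThree

/-- A second involution word. -/
def gens3 : List (List (ℕ × ZMod 3)) :=
  [reeWordU 1 0 1 0, reeWordU 1 0 1 0, reeWordV 1 0 1 0]

theorem applyW_klein :
    (∀ b : chevG2.Idx, applyW (gens3.flatten ++ gens3.flatten) (toList (Pi.single b 1)) =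
      applyW [] (toList (Pi.single b 1))) ∧
    (∀ b : chevG2.Idx, applyW (gens4.flatten ++ gens4.flatten) (toList (Pi.single b 1)) =
      applyW [] (toList (Pi.single b 1))) ∧
    (∀ b : chevG2.Idx, applyW (gens3.flatten ++ gens4.flatten) (toList (Pi.single b 1)) =
      applyW (gens4.flatten ++ gens3.flatten) (toList (Pi.single b 1))) ∧
    (∃ b : chevG2.Idx, applyW gens3.flatten (toList (Pi.single b 1)) ≠
      applyW [] (toList (Pi.single b 1))) ∧
    (∃ b : chevG2.Idx, applyW gens4.flatten (toList (Pi.single b 1)) ≠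
      applyW [] (toList (Pi.single b 1))) ∧
    (∃ b : chevG2.Idx, applyW gens3.flatten (toList (Pi.single b 1)) ≠
      applyW gens4.flatten (toList (Pi.single b 1))) := by
  decide +kernel

theorem pos_getElem : ∀ j : Fin idxList.length, pos idxList[j] = j.val := by decide +kernel

theorem toList_ofList (L : List (ZMod 3)) (h : L.length = idxList.length) :
    toList (ofList L) = L := by
  refine List.ext_getElem (by simp [toList, h]) fun i h1 h2 => ?_
  simp only [toList, List.getElem_map, ofList]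
  have := pos_getElem ⟨i, by simpa [toList] using h1⟩
  simp only [Fin.getElem_fin] at this
  rw [this, List.getD_eq_getElem _ _ h2]

theorem wordMat_eq_of_applyW {w w' : List (ℕ × ZMod 3)}
    (h : ∀ b : chevG2.Idx, applyW w (toList (Pi.single b 1)) = applyW w' (toList (Pi.single b 1))) :
    chevG2.wordMat (ZMod 3) w = chevG2.wordMat (ZMod 3) w' := by
  ext a b
  have e := congrArg ofList (h b)
  rw [ofList_applyW, ofList_applyW] at e
  simpa [Matrix.mulVec_single] using congrFun e a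

theorem applyW_length (w : List (ℕ × ZMod 3)) (f : chevG2.Idx → ZMod 3) :
    (applyW w (toList f)).length = idxList.length := by
  cases w with
  | nil => simp [applyW, toList]
  | cons p w => simp [applyW, toList]

theorem wordMat_ne_of_applyW {w w' : List (ℕ × ZMod 3)}
    (h : ∃ b : chevG2.Idx, applyW w (toList (Pi.single b 1)) ≠ applyW w' (toList (Pi.single b 1))) :
    chevG2.wordMat (ZMod 3) w ≠ chevG2.wordMat (ZMod 3) w' := by
  obtain ⟨b, hb⟩ := h
  intro e
  refine hb ?_
  rw [← toList_ofList _ (applyW_length w (Pi.single b 1)),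
    ← toList_ofList _ (applyW_length w' (Pi.single b 1)), ofList_applyW, ofList_applyW, e]

variable {K : Type*} [Field K] [Fintype K] {m : ℕ}

/-- `²G₂(q)` contains a four-group. -/
theorem ree_four_group (hK : Fintype.card K = 3 ^ (2 * m + 1)) :
    ∃ g₁ g₂ : ↥(twistedG2 K (3 ^ m)), Commute g₁ g₂ ∧ g₁ * g₁ = 1 ∧ g₂ * g₂ = 1 ∧ g₁ ≠ 1 ∧
      g₂ ≠ 1 ∧ g₁ ≠ g₂ := by
  haveI := charP_of_card Nat.prime_three hK
  set φ : ZMod 3 →+* K := ZMod.castHom dvd_rfl K with hφ
  set f := Matrix.GeneralLinearGroup.map (n := chevG2.Idx) φ with hf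
  have hfinj : Function.Injective f := by
    intro A B h
    apply Units.ext
    ext i j
    exact φ.injective (congrArg (fun C : GL chevG2.Idx K => (C : Matrix _ _ K) i j) h)
  have hp : ∀ z : ZMod 3, (φ z) ^ 3 ^ m = φ z := fun z => by rw [← map_pow, ZMod.pow_card_pow]
  have hU : ∀ t u v : ZMod 3, (reeWordU 1 t u v).map (fun p => (p.1, φ p.2)) =
      reeWordU (3 ^ m) (φ t) (φ u) (φ v) := fun t u v => by
    simp only [reeWordU, List.map_cons, List.map_nil, map_add, map_mul, map_pow, pow_succ, pow_mul',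
      hp, pow_one, pow_zero, one_mul, mul_one]
  have hV : ∀ t u v : ZMod 3, (reeWordV 1 t u v).map (fun p => (p.1, φ p.2)) =
      reeWordV (3 ^ m) (φ t) (φ u) (φ v) := fun t u v => by
    rw [reeWordV, reeWordV, ← hU]
    simp [ChevalleyDatum.negWord, List.map_map, Function.comp_def]
  set el : List (ℕ × ZMod 3) → GL chevG2.Idx (ZMod 3) := fun w =>
    (w.map fun p => xGL chevG2 (ZMod 3) p.1 p.2).prod with hel
  have key : ∀ v : List (ℕ × ZMod 3),
      ((v.map fun p => (p.1, φ p.2)).map fun p => xGL chevG2 K p.1 p.2).prod = f (el v) := by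
    intro v
    induction v with
    | nil => simp [hel]
    | cons p v ih =>
      simp only [hel, List.map_cons, List.prod_cons, map_mul] at ih ⊢
      rw [ih]
      congr 1
      apply Units.ext
      rw [val_xGL (rulesG2 K), ← x_map chevG2 φ, ← val_xGL (rulesG2 (ZMod 3))]
      rfl
  have heq : ∀ {w w' : List (ℕ × ZMod 3)}, chevG2.wordMat (ZMod 3) w = chevG2.wordMat (ZMod 3) w' →
      el w = el w' := fun h => Units.ext (by
    rw [val_word (rulesG2 (ZMod 3)), val_word (rulesG2 (ZMod 3)), h])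
  have hne : ∀ {w w' : List (ℕ × ZMod 3)}, chevG2.wordMat (ZMod 3) w ≠ chevG2.wordMat (ZMod 3) w' →
      f (el w) ≠ f (el w') := fun h e => h (by
    have := congrArg Units.val (hfinj e)
    rwa [val_word (rulesG2 (ZMod 3)), val_word (rulesG2 (ZMod 3))] at this)
  have happ : ∀ w w' : List (ℕ × ZMod 3), el (w ++ w') = el w * el w' := fun w w' => by
    simp [hel]
  have hnil : f (el []) = 1 := by simp [hel]
  have hmem : ∀ L : List (List (ℕ × ZMod 3)), (∀ w ∈ L, ∃ t u v : ZMod 3,
      w = reeWordU 1 t u v ∨ w = reeWordV 1 t u v) → f (el L.flatten) ∈ twistedG2 K (3 ^ m) := by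
    intro L hL
    rw [← key, List.map_flatten, List.map_flatten, List.prod_flatten]
    refine list_prod_mem fun g hg => ?_
    simp only [List.mem_map] at hg
    obtain ⟨_, ⟨_, ⟨w, hw, rfl⟩, rfl⟩, rfl⟩ := hg
    obtain ⟨t, u, v, rfl | rfl⟩ := hL w hw
    · rw [hU]; exact word_mem_genSubgroup (rulesG2 K) ⟨_, _, _, Or.inl rfl⟩
    · rw [hV]; exact word_mem_genSubgroup (rulesG2 K) ⟨_, _, _, Or.inr rfl⟩
  have h3 := hmem gens3 (by
    simp only [gens3, List.mem_cons, List.not_mem_nil, or_false]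
    rintro w (rfl | rfl | rfl)
    exacts [⟨0, 1, 0, Or.inl rfl⟩, ⟨0, 1, 0, Or.inl rfl⟩, ⟨0, 1, 0, Or.inr rfl⟩])
  have h4 := hmem gens4 (by
    simp only [gens4, List.mem_cons, List.not_mem_nil, or_false]
    rintro w (rfl | rfl | rfl | rfl)
    exacts [⟨0, 0, 1, Or.inl rfl⟩, ⟨0, 0, 1, Or.inr rfl⟩, ⟨1, 1, 1, Or.inl rfl⟩,
      ⟨2, 1, 2, Or.inr rfl⟩])
  obtain ⟨a1, a2, a3, a4, a5, a6⟩ := applyW_klein
  refine ⟨⟨_, h3⟩, ⟨_, h4⟩, Subtype.ext ?_, Subtype.ext ?_, Subtype.ext ?_, fun e => ?_, fun e => ?_,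
    fun e => ?_⟩
  · show f (el _) * f (el _) = f (el _) * f (el _)
    rw [← map_mul, ← map_mul, ← happ, ← happ, heq (wordMat_eq_of_applyW a3)]
  · show f (el _) * f (el _) = 1
    rw [← map_mul, ← happ, heq (wordMat_eq_of_applyW a1), hnil]
  · show f (el _) * f (el _) = 1
    rw [← map_mul, ← happ, heq (wordMat_eq_of_applyW a2), hnil]
  · exact hne (wordMat_ne_of_applyW a4) ((congrArg Subtype.val e).trans hnil.symm)
  · exact hne (wordMat_ne_of_applyW a5) ((congrArg Subtype.val e).trans hnil.symm)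
  · exact hne (wordMat_ne_of_applyW a6) (congrArg Subtype.val e)

end Cfsg.Agent.NoQuad
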