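import Cfsg.Agent.NoQuad.Kernel
import Cfsg.Agent.LocalP.PReduced

/-!
Quadratic action of an irreducible group without `SL(2, p)` sections.
-/

set_option autoImplicit false
set_option linter.unusedSectionVars false

open Cfsg Subgroup
open scoped commutatorElement MatrixGroups

namespace Cfsg.Agent.NoQuad

/-- Every image in `SL(2, p)` of a 2-subgroup of `Q` is commutative. -/
def CommTwoImages (p : ℕ) [Fact p.Prime] (Q : Type*) [Group Q] : Prop :=
  ∀ T : Subgroup Q, IsPGroup 2 T → ∀ ψ : T →* SL(2, ZMod p), ∀ x y : T, Commute (ψ x) (ψ y)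

variable {p : ℕ} [hp : Fact p.Prime]

theorem not_surjective_of_commTwoImages {Q : Type*} [Group Q] [Finite Q] (hp2 : p ≠ 2)
    (hQ : CommTwoImages p Q) (K : Subgroup Q) (φ : K →* SL(2, ZMod p)) :
    ¬ Function.Surjective φ := by
  intro hφ
  obtain ⟨R, hR, hRc⟩ := FF.exists_noncommuting_two_elements (p := p) hp2
  obtain ⟨S, hS⟩ := hR.exists_le_sylow
  haveI : Fact (Nat.Prime 2) := ⟨Nat.prime_two⟩
  obtain ⟨S0, hS0⟩ := Sylow.mapSurjective_surjective hφ 2 S
  refine hRc (Modules.comm_iff.2 fun a ha b hb => ?_)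
  have hmem : ∀ z ∈ R, ∃ k : K, k ∈ (S0 : Subgroup K) ∧ φ k = z := fun z hz => by
    have : z ∈ (S0 : Subgroup K).map φ := by
      rw [← Sylow.coe_mapSurjective hφ, hS0]; exact hS hz
    exact this
  obtain ⟨x, hx, rfl⟩ := hmem a ha
  obtain ⟨y, hy, rfl⟩ := hmem b hb
  exact hQ ((S0 : Subgroup K).map K.subtype) (S0.isPGroup'.map _)
    (φ.comp (Subgroup.inclusion (map_subtype_le _))) ⟨x, x, hx, rfl⟩ ⟨y, y, hy, rfl⟩

variable {G : Type*} [Group G] [Finite G]

/-- An irreducible group has no nontrivial normal `p`-subgroup modulo the kernel. -/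
theorem pCore_quot_eq_bot (V H : Subgroup G) (hV : IsElementaryAbelian p V)
    (hHV : H ≤ normalizer (V : Set G))
    (hirr : ∀ U : Subgroup G, U ≤ V → H ≤ normalizer (U : Set G) → U = ⊥ ∨ U = V) (hV1 : V ≠ ⊥)
    [hn : ((centralizer (V : Set G)).subgroupOf H).Normal] :
    pCore p (↥H ⧸ (centralizer (V : Set G)).subgroupOf H) = ⊥ := by
  set C := (centralizer (V : Set G)).subgroupOf H with hC
  set π := QuotientGroup.mk' C
  set N := (pCore p (↥H ⧸ C)).comap π with hN
  have hNn : N.Normal := inferInstance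
  obtain ⟨P⟩ : Nonempty (Sylow p N) := inferInstance
  set Pg : Subgroup G := (((P : Subgroup N).map N.subtype).map H.subtype) with hPg
  have hVp : IsPGroup p V := fun v =>
    ⟨1, Subtype.ext (by rw [pow_one]; exact hV.2 v v.2)⟩
  have hPH : Pg ≤ H := map_subtype_le _
  have hW : IsPGroup p ↥(Pg ⊔ V) :=
    ((P.isPGroup'.map N.subtype).map H.subtype).to_sup_of_normal_right' hVp (hPH.trans hHV)
  -- a fixed point of `P` on `V`
  have hfix : ∃ v ∈ V, v ≠ 1 ∧ ∀ x ∈ Pg, x * v = v * x := by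
    have hconj : ∀ (x : Pg) (v : V), (x : G) * v * (x : G)⁻¹ ∈ V := fun x v =>
      (Subgroup.mem_normalizer_iff.1 (hHV (hPH x.2)) _).1 v.2
    letI : MulAction Pg V :=
      { smul := fun x v => ⟨(x : G) * v * (x : G)⁻¹, hconj x v⟩
        one_smul := fun v => Subtype.ext (show ((1 : Pg) : G) * v * ((1 : Pg) : G)⁻¹ = v by simp)
        mul_smul := fun x y v => Subtype.ext
          (show ((x * y : Pg) : G) * v * ((x * y : Pg) : G)⁻¹ =
            (x : G) * ((y : G) * v * (y : G)⁻¹) * (x : G)⁻¹ by simp [mul_assoc]) }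
    have hd : p ∣ Nat.card V := by
      rcases (hVp.card_eq_or_dvd : Nat.card V = 1 ∨ _) with h | h
      · exact absurd (Subgroup.card_eq_one.1 h) hV1
      · exact h
    have h1 : (1 : V) ∈ MulAction.fixedPoints Pg V := fun x =>
      Subtype.ext (show (x : G) * ((1 : V) : G) * (x : G)⁻¹ = ((1 : V) : G) by simp)
    obtain ⟨w, hw, hw1⟩ := IsPGroup.exists_fixed_point_of_prime_dvd_card_of_fixed_point
      (p := p) (G := Pg) ((P.isPGroup'.map N.subtype).map H.subtype) V hd h1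
    refine ⟨w, w.2, fun h => hw1 (Subtype.ext h.symm), fun x hx => ?_⟩
    have h2 : x * (w : G) * x⁻¹ = w := congrArg Subtype.val (hw ⟨x, hx⟩)
    rwa [mul_inv_eq_iff_eq_mul] at h2
  -- `N = P C`
  have hNg : ∀ n ∈ N, ∃ x ∈ Pg, ∃ c ∈ C, (n : G) = x * (c : H) := by
    intro n hn'
    let f : N →* pCore p (↥H ⧸ C) :=
      (π.comp N.subtype).codRestrict (pCore p (↥H ⧸ C)) fun z => z.2
    have hf : Function.Surjective f := fun z => by
      obtain ⟨y, hy⟩ := QuotientGroup.mk'_surjective C z.1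
      exact ⟨⟨y, show π y ∈ _ by rw [hy]; exact z.2⟩, Subtype.ext hy⟩
    have hp' : IsPGroup p (pCore p (↥H ⧸ C)) := PSolv.isPGroup_pCore p _
    have htop : (P : Subgroup N).map f = ⊤ := by
      rw [← Sylow.coe_mapSurjective hf]
      exact top_unique ((Sylow.mapSurjective hf P).is_maximal' (hp'.to_subgroup ⊤) le_top).le
    obtain ⟨x, hx, he⟩ := (htop.symm ▸ mem_top (f ⟨n, hn'⟩) : f ⟨n, hn'⟩ ∈ (P : Subgroup N).map f)
    refine ⟨((x : H) : G), ⟨x, ⟨x, hx, rfl⟩, rfl⟩, (x : H)⁻¹ * n, ?_, by simp⟩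
    exact QuotientGroup.eq.1 (congrArg Subtype.val he)
  obtain ⟨v, hv, hv1, hvc⟩ := hfix
  set U := V ⊓ centralizer ((N.map H.subtype : Subgroup G) : Set G) with hU
  have hUinv : H ≤ normalizer (U : Set G) := by
    intro h hh
    rw [Subgroup.mem_normalizer_iff_map_conj_eq, hU,
      Subgroup.map_inf _ _ _ (MulAut.conj h).injective]
    congr 1
    · exact Subgroup.mem_normalizer_iff_map_conj_eq.1 (hHV hh)
    · have hN' : h ∈ normalizer ((N.map H.subtype : Subgroup G) : Set G) :=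
        Subgroup.le_normalizer_map H.subtype
          ⟨⟨h, hh⟩, by rw [Subgroup.normalizer_eq_top_iff.2 hNn]; trivial, rfl⟩
      exact Subgroup.mem_normalizer_iff_map_conj_eq.1
        (LocalP.normalizer_le_normalizer_centralizer (N.map H.subtype) hN')
  rcases hirr U inf_le_left hUinv with h | h
  · exfalso
    refine hv1 (Subgroup.mem_bot.1 (h ▸ ⟨hv, Subgroup.mem_centralizer_iff.2 ?_⟩))
    rintro _ ⟨n, hn', rfl⟩
    obtain ⟨x, hx, c, hc, he⟩ := hNg n hn'
    show (n : G) * v = v * n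
    rw [he, mul_assoc, ← Subgroup.mem_centralizer_iff.1 (mem_subgroupOf.1 hc) v hv, ← mul_assoc,
      hvc x hx, mul_assoc]
  · rw [eq_bot_iff]
    intro z hz
    obtain ⟨y, rfl⟩ := QuotientGroup.mk'_surjective C z
    rw [Subgroup.mem_bot]
    refine (QuotientGroup.eq_one_iff y).2 (mem_subgroupOf.2 (Subgroup.mem_centralizer_iff.2 ?_))
    intro w hw
    exact ((Subgroup.mem_centralizer_iff.1 (h.ge hw).2) y ⟨y, hz, rfl⟩).symm

/-- The main criterion. -/
theorem commutator_eq_bot_of_commTwoImages (hp2 : p ≠ 2) (V H : Subgroup G)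
    (hV : IsElementaryAbelian p V) (hHV : H ≤ normalizer (V : Set G))
    (hirr : ∀ U : Subgroup G, U ≤ V → H ≤ normalizer (U : Set G) → U = ⊥ ∨ U = V)
    [hn : ((centralizer (V : Set G)).subgroupOf H).Normal]
    (hQ : CommTwoImages p (↥H ⧸ (centralizer (V : Set G)).subgroupOf H))
    (A : Subgroup G) (hA : A ≤ H) (hquad : ⁅⁅V, A⁆, A⁆ = ⊥) : ⁅V, A⁆ = ⊥ := by
  by_contra hne
  rw [Subgroup.commutator_eq_bot_iff_le_centralizer, Subgroup.le_centralizer_iff,
    SetLike.not_le_iff_exists] at hne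
  obtain ⟨a, ha, hac⟩ := hne
  have hV1 : V ≠ ⊥ := fun h => hac (by rw [h]; simp [Subgroup.mem_centralizer_iff])
  set x : H := ⟨a, hA ha⟩
  have hxq : ⁅⁅V, zpowers (x : G)⁆, zpowers (x : G)⁆ = ⊥ :=
    le_bot_iff.1 ((Subgroup.commutator_mono (Subgroup.commutator_mono le_rfl (zpowers_le.2 ha))
      (zpowers_le.2 ha)).trans hquad.le)
  have hnat := Stability.natural_pair_of_not_pCore hp2 hV hHV
    (C := (centralizer (V : Set G)).subgroupOf H) (fun _ => mem_subgroupOf) hxq (by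
      rw [pCore_quot_eq_bot V H hV hHV hirr hV1, Subgroup.mem_bot, QuotientGroup.eq_one_iff,
        mem_subgroupOf]
      exact hac)
  obtain ⟨K, φ, hKH, hφ, hker⟩ := exists_hom_ker_of_naturalPair hV hnat
  set g : K →* ↥H ⧸ (centralizer (V : Set G)).subgroupOf H :=
    (QuotientGroup.mk' _).comp (Subgroup.inclusion hKH)
  refine not_surjective_of_commTwoImages hp2 hQ g.range
    ((QuotientGroup.lift g.ker φ fun k (hk : k ∈ g.ker) => hker k (mem_subgroupOf.1
      ((QuotientGroup.eq_one_iff (Subgroup.inclusion hKH k)).1 (MonoidHom.mem_ker.1 hk) :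
        Subgroup.inclusion hKH k ∈ (centralizer (V : Set G)).subgroupOf H))).comp
      (QuotientGroup.quotientKerEquivRange g).symm.toMonoidHom) ?_
  intro z
  obtain ⟨k, hk⟩ := hφ z
  refine ⟨QuotientGroup.quotientKerEquivRange g (QuotientGroup.mk k), ?_⟩
  rw [MonoidHom.comp_apply, MulEquiv.coe_toMonoidHom, MulEquiv.symm_apply_apply]
  exact hk

end Cfsg.Agent.NoQuad
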