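import Cfsg.Agent.NoQuad.Tools
import Mathlib.LinearAlgebra.Matrix.ProjectiveSpecialLinearGroup
import Mathlib.LinearAlgebra.Matrix.SpecialLinearGroup

/-!
Two-subgroups of `PSL(2, F)`, `|F|` odd, have no non-commutative image in `SL(2, p)`.
-/

set_option autoImplicit false
set_option linter.unusedSectionVars false

open Cfsg Subgroup Matrix
open scoped MatrixGroups

namespace Cfsg.Agent.NoQuad

section field

variable {F : Type*} [Field F]

/-- An element of trace zero squares to `-1`. -/
theorem sq_eq_neg_one_of_trace {x : SL(2, F)} (h : x 0 0 + x 1 1 = 0) : x * x = -1 := by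
  have hd := Linear.slTwo_det x
  have he : x 1 1 = -(x 0 0) := by linear_combination h
  apply Linear.slTwo_ext <;> simp [Linear.slTwo_mul_apply, Fin.sum_univ_two]
  · linear_combination (-1 : F) * hd + (x 0 0) * h
  · linear_combination (x 0 1) * h
  · linear_combination (x 1 0) * h
  · linear_combination (-1 : F) * hd + (x 1 1) * h

theorem central_of_scalar {x : SL(2, F)} (h01 : x 0 1 = 0) (h10 : x 1 0 = 0) (h : x 0 0 = x 1 1) :
    x ∈ Subgroup.center SL(2, F) := by
  rw [Subgroup.mem_center_iff]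
  intro g
  apply Linear.slTwo_ext <;> simp [Linear.slTwo_mul_apply, Fin.sum_univ_two, h01, h10, h] <;> ring

theorem eq_one_or_neg_one_of_mem_center {r : SL(2, F)} (h : r ∈ Subgroup.center SL(2, F)) :
    r = 1 ∨ r = -1 := by
  have hu := Subgroup.mem_center_iff.1 h (Linear.upperT (1 : F))
  have hl := Subgroup.mem_center_iff.1 h (Linear.lowerT (1 : F))
  have u00 := congrArg (fun m : SL(2, F) => m 0 0) hu
  have u01 := congrArg (fun m : SL(2, F) => m 0 1) hu
  have l00 := congrArg (fun m : SL(2, F) => m 0 0) hl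
  simp [Linear.slTwo_mul_apply, Fin.sum_univ_two, Matrix.SpecialLinearGroup.transvection_coe]
    at u00 u01 l00
  have hd := Linear.slTwo_det r
  have h11 : r 1 1 = r 0 0 := by linear_combination u01
  rw [h11, l00, u00] at hd
  rcases mul_self_eq_one_iff.1 (show r 0 0 * r 0 0 = 1 by linear_combination hd) with h1 | h1
  · left
    apply Linear.slTwo_ext <;> simp [h11, l00, u00, h1]
  · right
    apply Linear.slTwo_ext <;> simp [h11, l00, u00, h1]

theorem mem_center_of_sq_eq_one (h2 : (2 : F) ≠ 0) {x : SL(2, F)} (h : x * x = 1) :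
    x ∈ Subgroup.center SL(2, F) := by
  have e : x⁻¹ = x := inv_eq_of_mul_eq_one_right h
  have h00 := congrArg (fun m : SL(2, F) => m 0 0) e
  have h01 := congrArg (fun m : SL(2, F) => m 0 1) e
  have h10 := congrArg (fun m : SL(2, F) => m 1 0) e
  simp [Matrix.SpecialLinearGroup.coe_inv, Matrix.adjugate_fin_two] at h00 h01 h10
  exact central_of_scalar
    ((mul_eq_zero.1 (show (2 : F) * x 0 1 = 0 by linear_combination -h01)).resolve_left h2)
    ((mul_eq_zero.1 (show (2 : F) * x 1 0 = 0 by linear_combination -h10)).resolve_left h2)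
    h00.symm

theorem trace_zero_of_sq_eq_neg_one {z : SL(2, F)} (h : z * z = -1)
    (hz : z ∉ Subgroup.center SL(2, F)) : z 0 0 + z 1 1 = 0 := by
  by_contra ht
  have h00 := congrArg (fun m : SL(2, F) => m 0 0) h
  have h01 := congrArg (fun m : SL(2, F) => m 0 1) h
  have h10 := congrArg (fun m : SL(2, F) => m 1 0) h
  simp [Linear.slTwo_mul_apply, Fin.sum_univ_two] at h00 h01 h10
  have hb : z 0 1 = 0 :=
    (mul_eq_zero.1 (show (z 0 0 + z 1 1) * z 0 1 = 0 by linear_combination h01)).resolve_left ht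
  have hc : z 1 0 = 0 :=
    (mul_eq_zero.1 (show (z 0 0 + z 1 1) * z 1 0 = 0 by linear_combination h10)).resolve_left ht
  refine hz (central_of_scalar hb hc ?_)
  have hd := Linear.slTwo_det z
  rw [hb, hc] at hd
  have h11 := congrArg (fun m : SL(2, F) => m 1 1) h
  simp [Linear.slTwo_mul_apply, Fin.sum_univ_two] at h11
  exact sub_eq_zero.1 ((mul_eq_zero.1 (show (z 0 0 + z 1 1) * (z 0 0 - z 1 1) = 0 by
    linear_combination h00 - h11)).resolve_left ht)

theorem commute_of_commute_noncentral {z x y : SL(2, F)} (h2 : (2 : F) ≠ 0)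
    (hz : z * z = -1) (hzc : z ∉ Subgroup.center SL(2, F)) (hx : Commute x z) (hy : Commute y z) :
    Commute x y := by
  have ht := trace_zero_of_sq_eq_neg_one hz hzc
  have hd := Linear.slTwo_det z
  have x00 := congrArg (fun m : SL(2, F) => m 0 0) hx.eq
  have x01 := congrArg (fun m : SL(2, F) => m 0 1) hx.eq
  have x10 := congrArg (fun m : SL(2, F) => m 1 0) hx.eq
  have y00 := congrArg (fun m : SL(2, F) => m 0 0) hy.eq
  have y01 := congrArg (fun m : SL(2, F) => m 0 1) hy.eq
  have y10 := congrArg (fun m : SL(2, F) => m 1 0) hy.eq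
  simp [Linear.slTwo_mul_apply, Fin.sum_univ_two] at x00 x01 x10 y00 y01 y10
  have hd' : z 1 1 = -(z 0 0) := by linear_combination ht
  rw [hd'] at x01 x10 y01 y10 hd
  show x * y = y * x
  by_cases hb : z 0 1 = 0
  · rw [hb] at x00 x01 y00 y01 hd
    have ha : z 0 0 ≠ 0 := fun e => by rw [e] at hd; simp at hd
    have hx01 : x 0 1 = 0 := by
      have := mul_ne_zero h2 ha
      exact (mul_eq_zero.1 (show (2 * z 0 0) * x 0 1 = 0 by linear_combination -x01)).resolve_left this
    have hy01 : y 0 1 = 0 := by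
      have := mul_ne_zero h2 ha
      exact (mul_eq_zero.1 (show (2 * z 0 0) * y 0 1 = 0 by linear_combination -y01)).resolve_left this
    have key : x 1 0 * (y 0 0 - y 1 1) = y 1 0 * (x 0 0 - x 1 1) := by
      refine mul_left_cancel₀ (mul_ne_zero h2 ha) ?_
      linear_combination (y 0 0 - y 1 1) * x10 - (x 0 0 - x 1 1) * y10
    apply Linear.slTwo_ext <;> simp [Linear.slTwo_mul_apply, Fin.sum_univ_two, hx01, hy01]
    · ring
    · linear_combination key
    · ring
  · have k1 : x 0 1 * y 1 0 = y 0 1 * x 1 0 := by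
      refine mul_left_cancel₀ hb ?_
      linear_combination y 0 1 * x00 - x 0 1 * y00
    have k2 : x 0 1 * (y 0 0 - y 1 1) = y 0 1 * (x 0 0 - x 1 1) := by
      refine mul_left_cancel₀ hb ?_
      linear_combination x 0 1 * y01 - y 0 1 * x01
    have k3 : x 1 0 * (y 0 0 - y 1 1) = y 1 0 * (x 0 0 - x 1 1) := by
      refine mul_left_cancel₀ hb ?_
      linear_combination x 1 0 * y01 - y 1 0 * x01 - (2 * z 0 0) * k1
    apply Linear.slTwo_ext <;> simp [Linear.slTwo_mul_apply, Fin.sum_univ_two]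
    · linear_combination k1
    · linear_combination -k2
    · linear_combination k3
    · linear_combination -k1

theorem trace_zero_of_anticommute {z x : SL(2, F)} (h2 : (2 : F) ≠ 0) (hz : z * z = -1)
    (hzc : z ∉ Subgroup.center SL(2, F)) (hx : x * z = -(z * x)) : x 0 0 + x 1 1 = 0 := by
  by_contra h
  have ht := trace_zero_of_sq_eq_neg_one hz hzc
  have hd := Linear.slTwo_det z
  have e00 := congrArg (fun m : SL(2, F) => m 0 0) hx
  have e01 := congrArg (fun m : SL(2, F) => m 0 1) hx
  have e10 := congrArg (fun m : SL(2, F) => m 1 0) hx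
  have e11 := congrArg (fun m : SL(2, F) => m 1 1) hx
  simp [Matrix.SpecialLinearGroup.coe_neg, Matrix.SpecialLinearGroup.coe_mul, Matrix.mul_apply,
    Matrix.neg_apply, Fin.sum_univ_two] at e00 e01 e10 e11
  have hd' : z 1 1 = -(z 0 0) := by linear_combination ht
  rw [hd'] at e01 e10 e11 hd
  have hb : z 0 1 = 0 :=
    (mul_eq_zero.1 (show (x 0 0 + x 1 1) * z 0 1 = 0 by linear_combination e01)).resolve_left h
  have hc : z 1 0 = 0 :=
    (mul_eq_zero.1 (show (x 0 0 + x 1 1) * z 1 0 = 0 by linear_combination e10)).resolve_left h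
  rw [hb, hc] at hd e00 e11
  have ha : (2 : F) * z 0 0 ≠ 0 := mul_ne_zero h2 fun e => by rw [e] at hd; simp at hd
  refine h ?_
  have h0 : x 0 0 = 0 :=
    (mul_eq_zero.1 (show (2 * z 0 0) * x 0 0 = 0 by linear_combination e00)).resolve_left ha
  have h1 : x 1 1 = 0 :=
    (mul_eq_zero.1 (show (2 * z 0 0) * x 1 1 = 0 by linear_combination -e11)).resolve_left ha
  rw [h0, h1, add_zero]

end field

variable {p : ℕ} [hp : Fact p.Prime]

theorem two_ne_zero_zmod (hp2 : p ≠ 2) : (2 : ZMod p) ≠ 0 := by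
  intro h
  have h' : ((2 : ℕ) : ZMod p) = 0 := by simpa using h
  rw [ZMod.natCast_eq_zero_iff] at h'
  exact hp2 ((Nat.prime_dvd_prime_iff_eq hp.out Nat.prime_two).1 h')

theorem commTwoImages_psl (hp2 : p ≠ 2) {F : Type*} [Field F] [Fintype F]
    (hF : (2 : F) ≠ 0) : CommTwoImages p (ProjectiveSpecialLinearGroup (Fin 2) F) := by
  intro T hT ψ x y
  haveI : Fact (Nat.Prime 2) := ⟨Nat.prime_two⟩
  by_cases hT1 : T = ⊥
  · subst hT1
    rw [Subsingleton.elim x y]
  haveI : Nontrivial T := (Subgroup.nontrivial_iff_ne_bot T).2 hT1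
  haveI := hT.center_nontrivial
  obtain ⟨zc, hzc⟩ : ∃ zc : Subgroup.center T, orderOf zc = 2 := by
    refine exists_prime_orderOf_dvd_card' 2 ?_
    rcases ((hT.to_subgroup _).card_eq_or_dvd : Nat.card (Subgroup.center T) = 1 ∨ _) with h | h
    · exact absurd h Finite.one_lt_card.ne'
    · exact h
  obtain ⟨Z, hZ⟩ := QuotientGroup.mk'_surjective (Subgroup.center SL(2, F))
    (((zc : T) : ProjectiveSpecialLinearGroup (Fin 2) F))
  have hzo : orderOf ((zc : T) : ProjectiveSpecialLinearGroup (Fin 2) F) = 2 := by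
    rw [Subgroup.orderOf_coe, Subgroup.orderOf_coe, hzc]
  have hZc : Z ∉ Subgroup.center SL(2, F) := fun h => by
    rw [← hZ, show QuotientGroup.mk' _ Z = 1 from (QuotientGroup.eq_one_iff Z).2 h,
      orderOf_one] at hzo
    omega
  have hZ2 : Z * Z = -1 := by
    have h1 : Z * Z ∈ Subgroup.center SL(2, F) := by
      rw [← QuotientGroup.eq_one_iff]
      show QuotientGroup.mk' _ (Z * Z) = 1
      rw [map_mul, hZ, ← sq]
      exact orderOf_dvd_iff_pow_eq_one.1 (dvd_of_eq hzo)
    exact (eq_one_or_neg_one_of_mem_center h1).resolve_left fun h =>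
      hZc (mem_center_of_sq_eq_one hF h)
  -- the two kinds of elements
  have hkind : ∀ w : T, (∃ W : SL(2, F), QuotientGroup.mk' _ W = (w : ProjectiveSpecialLinearGroup (Fin 2) F) ∧
      Commute W Z) ∨ w * w = 1 := by
    intro w
    obtain ⟨W, hW⟩ := QuotientGroup.mk'_surjective (Subgroup.center SL(2, F))
      (w : ProjectiveSpecialLinearGroup (Fin 2) F)
    have hc : W * Z * (Z * W)⁻¹ ∈ Subgroup.center SL(2, F) := by
      rw [← QuotientGroup.eq_one_iff]
      show QuotientGroup.mk' _ (W * Z * (Z * W)⁻¹) = 1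
      rw [map_mul, map_inv, map_mul, map_mul, hW, hZ, mul_inv_eq_one]
      exact congrArg Subtype.val (Subgroup.mem_center_iff.1 zc.2 w)
    rcases eq_one_or_neg_one_of_mem_center hc with h | h
    · exact Or.inl ⟨W, hW, mul_inv_eq_one.1 h⟩
    · refine Or.inr (Subtype.ext ?_)
      rw [mul_inv_eq_iff_eq_mul, neg_one_mul] at h
      show (w : ProjectiveSpecialLinearGroup (Fin 2) F) * w = 1
      rw [← hW, ← map_mul, sq_eq_neg_one_of_trace (trace_zero_of_anticommute hF hZ2 hZc h)]
      exact (QuotientGroup.eq_one_iff _).2 (Subgroup.mem_center_iff.2 fun g => by simp)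
  have hinv : ∀ w : T, w * w = 1 → ∀ v : SL(2, ZMod p), Commute (ψ w) v := fun w hw v =>
    (Subgroup.mem_center_iff.1 (mem_center_of_sq_eq_one (two_ne_zero_zmod hp2)
      (by rw [← map_mul, hw, map_one] : ψ w * ψ w = 1)) v).symm
  rcases hkind x with ⟨X, hX, hXZ⟩ | hx
  · rcases hkind y with ⟨Y, hY, hYZ⟩ | hy
    · refine (show Commute x y from Subtype.ext ?_).map ψ
      show (x : ProjectiveSpecialLinearGroup (Fin 2) F) * y = y * x
      rw [← hX, ← hY, ← map_mul, ← map_mul,
        (commute_of_commute_noncentral hF hZ2 hZc hXZ hYZ).eq]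
    · exact (hinv y hy _).symm
  · exact hinv x hx _

end Cfsg.Agent.NoQuad
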